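import Cfsg.Agent.OD.Pre
import Cfsg.Agent.H8.C3F.F0
import Cfsg.Agent.H8.C3F.O
set_option autoImplicit false
set_option maxRecDepth 100000
set_option Elab.async false
set_option linter.all false
namespace CfH8.C3F
open CfH6 CfH6.D MulAction
theorem p0 : Rng (P.chk) 0 109 := rng_of 0 0 109 109 (by decide +kernel)
theorem c0 : (QO.ok && Nat.blt 0 QO.m && Nat.beq (P.chkCos QO trO 109 LM ed 0 [nat_lit 100, nat_lit 102, nat_lit 105, nat_lit 101, nat_lit 103, nat_lit 104, nat_lit 106] 0 0 1 ct0) 0) = true := by decide +kernel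
theorem lB : (C3D.QD.ok && Nat.beq (chkLevs C3D.QD C3D.trD P.cdK (P.okP 109 trO) levB []) 0 && Nat.beq (levB.map Lev.c).prod 4608) = true := by decide +kernel
end CfH8.C3F
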